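import Cfsg.Agent.H6.J4.D1.Main
import Cfsg.Agent.H6.J4.D2.Main
import Cfsg.Agent.H6.J4.C0.Main
import Cfsg.Agent.H6.J4.M.Main

set_option autoImplicit false
set_option maxRecDepth 100000
set_option Elab.async false

namespace Cfsg.H6.J4

def sg : List (List ℕ) := [[], [1], [2], [3], [2,1,2,1,3,1,3,1,2,1,2,1,2], [3,1,3,1,3,1,2,1,2,1,3,1,3], [2,1,3,1,2,1,3,1,2,1,2,1,3,1,2,1,3], [2,1,3,1,2,1,3,1,3,1,2,1,3,1,2,1,3], [1,2,1,2,1,2,2,1,2,1,2,1,2,1,2,1,2,1,2,2], [3,3,1,3,1,3,1,3,1,3,1,3,1,3,3,1,3,1,3,1], [1,2,1,2,1,2,2,1,2,1,2,1,2,1,2,1,2,1,2,2,2,1,2,1,2,1,2,2,1,2,1,2,1,2,2,1,2,1,2,1,2], [3,1,3,1,3,1,3,3,1,3,1,3,1,3,3,1,3,1,3,1,3,3,3,1,3,1,3,1,3,1,3,1,3,1,3,3,1,3,1,3,1], [2,1,2,1,2,1,2,1,3,1,2,1,2,1,3,1,3,1,3,1,3], [2,1,2,1,2,1,2,1,3,1,3,1,2,1,3,1,3,1,3,1,3], [3,1,2]]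

theorem lift1 : ∃ θ : N.Grp →* Spor.J4, ∀ l, θ (N.ev l) = evS ev sg l :=
  N.lift (good_evS hev hR (by decide +kernel)) (rels_evS_cyc hev hR (by decide +kernel))

/-- The map from the model of the subgroup. -/
noncomputable def θ : N.Grp →* Spor.J4 := lift1.choose

theorem hθ : ∀ l, θ (N.ev l) = evS ev sg l := lift1.choose_spec

/-- The letters of the model and the last generator. -/
noncomputable def ev1 : ℕ → Spor.J4 := evS ev (sg ++ [[4]])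

theorem hev1 : Good ev1 20011356514782768413454100473237930240 := good_evS hev hR (by decide +kernel)

theorem hθ1 : ∀ l, 1 ≤ l → l < 15 → θ (N.ev l) = ev1 l :=
  fun l _ h => by rw [hθ, ev1, evS_append ev sg _ h]

def B0 : List (List ℕ) := [[], [15,15], [15,6,15,6,15,6], [15,9,15,10,15,9,15,10]]

theorem hB0 : Rels ev1 B0 := rels_evS_cyc hev hR (by decide +kernel)

theorem comm : ∀ w, fixB N.img 15 [0] w = true → evL ev1 w * ev1 15 = ev1 15 * evL ev1 w :=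
  comm_of_stab hθ1 N.hφ (by norm_num) D2.stab (by decide +kernel)
    (comm_of_cyc hev1 (R := [[1, 15, 1, 15], [4, 15, 5, 15]])
      (rels_evS_cyc hev hR (by decide +kernel)) (by decide +kernel))

theorem hB1 : Rels ev1 C0.R :=
  rels_of_mv hev1 comm (Dce.chk_of hθ1 N.ora) hB0 (A := [([1], 2), ([4], 2), ([1,4], 2), ([1,5], 2), ([1,4,4], 2), ([1,4,4,1], 2), ([1,5,1,4], 2), ([1,5,1,5], 2), ([1,4,1,4,1], 2), ([1,4,4,1,4], 2), ([1,5,1,4,4], 2), ([1,4,1,4,1,5], 2), ([1,5,1,4,4,1], 2), ([1,5,1,4,1,4,1], 2), ([4,2,1,14], 2), ([1,5,1,4,2,1,14], 2), ([1,4,1,4,1,2,1,14], 2), ([1,5,1,4,1,2,1,14], 2), ([1,4,3,4,13], 2), ([1,4,1,4,1,3,4,13], 2), ([4,2,1,14,1], 2), ([1,5,1,4,2,1,14,1], 2), ([1,5,1,5,2,1,14,1], 2), ([1,4,1,4,1,2,1,14,1], 2), ([1,5,1,4,1,2,1,14,1], 2), ([1,4,3,4,14], 2), ([1,4,1,4,1,3,4,14], 2), ([1,4,1,2,1,7,3], 2), ([1,5,1,4,4,1,2,1,7,3],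 2), ([1,5,1,4,1,2,8,3], 2), ([4,2,1,14,5], 2), ([1,4,1,4,2,1,14,5], 2), ([1,4,1,4,1,2,1,14,5], 2), ([1,5,1,4,1,4,1,13,4,10], 2), ([1,2,9,3], 2), ([1,5,1,4,2,9,3], 2), ([1,5,1,8,11], 2), ([1,5,1,5,8,11], 2), ([1,5,1,4,1,2,12,3], 2), ([1,5,1,4,1,4,6,1], 2), ([1,5,1,4,4,7], 2), ([1,4,1,2,1,13,7], 2), ([1,5,1,4,1,2,1,13,7], 2), ([1,5,1,4,4,1,2,1,13,7], 2), ([1,5,1,4,4,7,1], 2), ([13,1,13], 2), ([1,4,4,13,1,13], 2), ([1,5,1,5,13,1,13], 2), ([1,4,1,4,1,5,13,1,13], 2), ([1,5,1,4,1,2,6,3,1], 2), ([1,5,1,4,1,8,11,4], 2), ([1,5,1,4,4,7,1,5], 2), ([1,4,1,4,1,5,7,1,5], 2), ([1,4,2,4,10,9], 2), ([1,5,1,4,4,2,4,10,9], 2), ([1,4,2,6,13,1], 2), ([1,4,1,4,1,2,6,13,1], 2), ([1,5,1,4,1,6,5], 2), ([1,4,1,4,1,2,6,13], 2), ([1,4,1,2,8,3,7], 2), ([1,5,1,4,4,1,2,8,3,7], 2), ([1,4,1,4,1,13,4,8], 2), ([1,5,1,4,4,13,4,8], 2), ([1,4,6,3,4,14], 2), ([1,4,1,4,1,6,3,4,14],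 2), ([2,1,3,9,5], 2), ([1,5,1,4,1,2,1,3,9,5], 2), ([1,4,4,13,1,14], 2), ([1,5,1,5,13,1,14], 2), ([1,5,1,4,1,6,4], 2), ([1,4,1,4,1,5,1,6,4], 2), ([], 0), ([], 0), ([7,1], 1), ([6,1,4,1], 1), ([13], 1), ([13,1], 1), ([2,6,13,1], 1), ([], 0), ([], 0), ([7], 1), ([6,1], 1), ([2,1,3,9,5], 1), ([6,4], 1), ([13], 1), ([13,1], 1), ([2,1,3,9,5], 1), ([6,4], 1), ([8,2,7,8], 1), ([6,2,10,7], 1), ([8,14,4,11], 1), ([1,14,1,3,4,1,4,1], 3), ([1,14,1,3,1,5,1,5,1], 3), ([1,14,1,3,5,1,4,4,1], 3), ([1,14,1,3,1,4,4,1,4,4], 3), ([1,14,1,3,4,1,4,1,4,1,4], 3), ([1,14,1,3,4,1,4,1,5,1,4], 3), ([1,14,1,3,5,1,4,1,4,1,5], 3), ([1,14,1,3,5,1,4,4,1,4,1], 3), ([1,14,1,3,1,4,1,4,1,5,1,4], 3), ([1,14,1,3,1,4,4,1,4,1,4,4], 3), ([1,14,1,3,1,5,1,4,4,1,5,1], 3), ([1,14,1,3,1,4,4,1,4,1,4,1,5], 3), ([1,14,1,3,1,5,1,4,1,4,1,4,1], 3), ([1,14,1,3,5,1,4,1,4,4,1,4,1], 3), ([1,14,1,3,5,1,4,4,1,4,4,1,5],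 3), ([1,14,1,3,1,5,1,4,1,5,1,5,1,5], 3), ([1,14,1,3,4,1,4,1,4,1,4,4,1,5], 3), ([1,14,1,3,4,4,1,5,1,4,1,5,1,5], 3), ([1,14,1,3,1,4,1,4,1,4,4,1,4,1,4], 3), ([1,14,1,3,1,5,1,4,1,5,1,5,1,4,1], 3), ([1,14,1,3,1,4,4,1,4,1,5,1,5,1,4,4], 3), ([1,14,1,3,5,1,4,1,4,4,1,4,1,5,1,5], 3), ([1,14,1,3,5,1,4,1,4,4,1,5,1,4,1,5], 3), ([1,14,1,3,1,5,1,4,1,5,1,5,1,4,1,4,1,5], 3), ([1,14,1,3,1,5,1,4,4,1,4,4,1,4,4,1,4,4], 3)]) (by decide +kernel)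

def B3 : List (List ℕ) := [[15,12,15,12,15,12,15,12,15,12,15,12], [13,15,13,15,13,15,1,15,12,15,12,15,12,1], [13,15,13,15,13,15,12,15,12,15,12,15,12,13], [13,15,13,15,13,15,13,15,12,15,12,15,12,12], [13,15,13,15,13,15,14,15,12,15,12,15,12,14], [15,12,15,12,15,12,5,15,12,15,12,15,12,4,10,5,10,3,15,12,15,12,15,12,2,11,4,11]]

theorem hB3 : Rels ev1 B3 :=
  rels_of_mv hev1 comm (Dce.chk_of hθ1 N.ora) (rels_of_mem_nil (C0.mem hev1 hB1))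
    (A := [([], 0), ([], 1), ([], 2), ([], 3), ([], 4), ([], 5)]) (by decide +kernel)

def s1 : List (List ℕ) := [[], [1], [2], [3], [4], [5], [6], [7], [8], [9], [10], [11], [12], [13], [14], [15,12,15,12,15,12], [13,15,13,15,13,15]]

theorem hθ2 : ∀ l, 1 ≤ l → l < 15 → θ (N.ev l) = evS ev1 s1 l := by
  intro l h1 h2
  have : ∀ l < 15, 1 ≤ l → s1.getD l [] = [l] := by decide +kernel
  rw [evS, this l h2 h1, evL_singleton, hθ1 l h1 h2]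

theorem hyp1 : D1.D.Hyp (evS ev1 s1) θ.range :=
  Dce.hyp_of hev1 hB3 (by decide +kernel) (Dce.chk_of hθ2 N.Q.ora)
    (Dce.ax_range (D := D1.D) hθ2 (by decide +kernel))

theorem cover1 : Cover θ.range (gen (evS ev1 s1) [[1], [2], [15]]) 2048 :=
  Dce.cover_gen D1.E (D1.hE (D1.model hθ2) hyp1)
    (Dce.inU_gen ⟨0, by decide +kernel, by decide +kernel⟩ (D1.hT (D1.model hθ2) hyp1)
      (Dce.hinv (D1.model hθ2) hyp1 (a := []) (b := []) (by decide +kernel))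
      (Dce.hgen (D1.model hθ2) (by decide +kernel)))

def Ws : List (List ℕ) := M.Ws

theorem ubH : UB (gen ev Ws) 501397585920 := by
  have := N.finite
  refine ((UB.range θ N.card).cover cover1).mono ?_
  rw [gen_evS, ev1, gen_evS]
  exact gen_le fun w hw => mem_of_memChk hev (V := [[0], [1], [0,1,0,4,0,4,0,4,0,4,1,0,1,0,1,0,1,0,4,0,1,0,1,0,4,0,4,0,4,0,4,2,1,0,1,0,1,0,1,0,4,0,4,0,1,0,4,0,4,0,4,0,4,1,0,1,0,1,0,1,0,4,0]]) (E := Ws) (by decide +kernel) w hw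

def sg2 : List (List ℕ) := sg ++ [[4], [4]]

theorem hθ' : ∀ l, 1 ≤ l → l < 15 → θ (N.ev l) = evS ev sg2 l :=
  fun l _ h => by rw [hθ, sg2, evS_append ev sg _ h]

def Wn : List (List ℕ) := [[1], [2]]

theorem range_eq : θ.range = gen ev Wn := by
  rw [range_eq_genS hθ N.hX2]
  congr 1

theorem range_le : θ.range ≤ gen ev Ws := range_eq ▸ gen_mono ev (by decide)

theorem hyp : D2.D.Hyp (evS ev sg2) (gen ev Ws) :=
  Dce.hyp_of hev hR (by decide +kernel) (Dce.chk_of hθ' N.ora)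
    fun w hw => range_le (Dce.ax_range (D := D2.D) hθ' (by decide +kernel) w hw)

theorem ax : D2.D.Valid (evS ev sg2) (gen ev Ws) (D2.D.cl 5) := by
  refine Dce.valid_of_mem (by decide +kernel) ?_
  rw [evL_subst]
  exact mem_of_memChk hev (V := [[1,0,1,0,1,0,1,0,4,0,4,0,1,0,4,0,4,0,4,0,4,1,0,1,0,1,0,1,0,4,0,2,0,1,0,4,0,4,0,4,0,4]]) (E := [subst sg2 (D2.D.gw (D2.D.cl 5).i)]) (by decide +kernel) _
    List.mem_cons_self

theorem hU : ∀ x, D2.D.InU (evS ev sg2) (gen ev Ws) θ (D2.E.map Prod.fst) x :=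
  Dce.all_inU ⟨0, by decide +kernel, by decide +kernel⟩ (D2.hT (D2.model hθ') hyp ax)
    (Dce.hinv (D2.model hθ') hyp (a := []) (b := []) (by decide +kernel))
    (X := [[1], [2], [15]]) (by rw [gen_evS]; exact hX)
    (Dce.hgen (D2.model hθ') (by decide +kernel))

theorem cover : Cover (gen ev Ws) ⊤ 173067389 := Dce.cover D2.E (D2.hE (D2.model hθ') hyp ax) hU

theorem ub : UB (⊤ : Subgroup Spor.J4) 86775571046077562880 := ubH.cover cover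

theorem finite : Finite Spor.J4 := ub.top.1

theorem main : Nat.card Spor.J4 = 86775571046077562880 ∧ Function.Injective M.μ :=
  card_of_kq ub M.dv

theorem exact : (gen ev Ws).index = 173067389 ∧ Nat.card (gen ev Ws) = 501397585920 := by
  have := finite
  exact exact_of_cover cover ubH main.1

theorem θ_inj : Function.Injective θ := by
  have := N.finite
  have := finite
  have h1 := (UB.range θ N.card).2
  have h2 := (cover1.finite_card).2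
  have h3 : gen ev Ws ≤ gen (evS ev1 s1) [[1], [2], [15]] := by
    rw [gen_evS, ev1, gen_evS]
    exact gen_le fun w hw => mem_of_memChk hev (V := [[0], [1], [0,1,0,4,0,4,0,4,0,4,1,0,1,0,1,0,1,0,4,0,1,0,1,0,4,0,4,0,4,0,4,2,1,0,1,0,1,0,1,0,4,0,4,0,1,0,4,0,4,0,4,0,4,1,0,1,0,1,0,1,0,4,0]]) (E := Ws) (by decide +kernel) w hw
  have h4 := Subgroup.card_le_of_le h3
  rw [exact.2] at h4
  exact injective_of_card_range θ (by rw [N.card]; omega)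

theorem coatom : IsCoatom (gen ev Ws) :=
  Dce.isCoatom D2.E (D2.hE (D2.model hθ') hyp ax) hU (fun p => range_le ⟨p, rfl⟩) exact.1
    (by norm_num) (maxChk_of_reach (M := 15733399) (L := [11, 11, 29, 31, 37, 43])
      (by norm_num) (by decide +kernel))

theorem simple : IsSimpleGroup Spor.J4 := by
  have := finite
  have : Nontrivial Spor.J4 := Finite.one_lt_card_iff_nontrivial.mp (by rw [main.1]; norm_num)
  refine isSimple_of_contains hX fun N _ hN => M.kill main.2 N ?_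
  exact mem_normal_of_coatom coatom
    (fun h => hN (M.core main.2 N h)) (p := 43) (k := 1) (j := 1)
    (by norm_num) (by rw [exact.1]; norm_num) (by rw [main.1]; norm_num) (M.powx main.2)

end Cfsg.H6.J4
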